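import Mathlib
import Cfsg.Agent.Leech.ModTwo
import Cfsg.Agent.Mathieu.M24
import Cfsg.Agent.Co0FiveFix81.Data

/-! The lattice classes fixed by the permutation of shape `1^4 5^4`: they form a space of
dimension 8. -/

set_option autoImplicit false

namespace CfsgLib.Co0FiveFix81

open Cfsg CfsgLib.Leech

/-- The element of order 5 of shape `1^4 5^4`. -/
noncomputable def gam : Co0 := permHom ⟨cubeTwist, CfsgLib.Mathieu.cubeTwist_mem⟩

/-- The inverse permutation, as a table. -/
def gSymm (p : GolayPt) : GolayPt :=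
  idxPt (([0, 6, 4, 3, 18, 7, 2, 10, 12, 13, 20, 17, 9, 16, 22, 15, 8, 14, 1, 11, 21, 5, 19, 23] : List ℕ).getD (ptIdx p) 0)

theorem gSymm_eq (p : GolayPt) : cubeTwist.symm p = gSymm p :=
  (Equiv.symm_apply_eq _).2 ((by decide +kernel : ∀ p, p = cubeTwist (gSymm p)) p)

theorem gam_smul (v : leechLattice) (i : GolayPt) :
    ((gam • v : leechLattice) : GolayPt → ℤ) i = (v : GolayPt → ℤ) (gSymm i) :=
  (permHom_apply _ _ _).trans (congrArg _ (gSymm_eq i))

theorem twist_pow : ∀ i : GolayPt,
    gSymm (gSymm (gSymm (gSymm (gSymm i)))) = i := by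
  decide +kernel

theorem gam_pow : gam ^ 5 = 1 := by
  refine co0_ext fun k => Subtype.ext (funext fun i => ?_)
  simp only [pow_succ, pow_zero, one_mul, mul_smul, gam_smul, one_smul, twist_pow]

theorem gam_ne_one : gam ≠ 1 := by
  intro h
  have h1 := congrArg (fun g : Co0 => ((g • axisVec (some 1) : leechLattice) : GolayPt → ℤ)) h
  have h2 := congrFun h1 (some 1)
  simp only [gam_smul, one_smul] at h2
  revert h2
  decide +kernel

theorem orderOf_gam : orderOf gam = 5 := by
  haveI : Fact (Nat.Prime 5) := ⟨by norm_num⟩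
  exact orderOf_eq_prime gam_pow gam_ne_one

/-- A combination of the basis as a table. -/
def combVec (m : ℕ) : GolayPt → ℤ := fun p =>
  ((List.range 8).map fun i =>
    if m.testBit i then (basisL.getD i []).getD (ptIdx p) 0 else 0).sum

theorem combVec_ok : ∀ m : Fin 256, CheckLeech (combVec m) := by decide +kernel

/-- A combination of the basis. -/
def comb (m : Fin 256) : leechLattice := ⟨combVec m, mem_leech_of_check (combVec_ok m)⟩

theorem comb_coe (m : Fin 256) : (comb m : GolayPt → ℤ) = combVec m := rfl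

/-- A decidable form of congruence modulo twice the lattice. -/
def CgOK (x y : GolayPt → ℤ) : Prop :=
  (∀ p, (x p - y p) % 2 = 0) ∧ CheckLeech fun p => (x p - y p) / 2

instance decidableCgOK (x y : GolayPt → ℤ) : Decidable (CgOK x y) := by unfold CgOK; infer_instance

theorem cg_of_ok {u v : leechLattice} (h : CgOK (u : GolayPt → ℤ) (v : GolayPt → ℤ)) : Cg u v :=
  cg_of_eq (w := ⟨_, mem_leech_of_check h.2⟩) fun i => by
    have := h.1 i
    show (u : GolayPt → ℤ) i = _ + 2 * (((u : GolayPt → ℤ) i - (v : GolayPt → ℤ) i) / 2)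
    omega

theorem combVec_add (a b : ℕ) (p : GolayPt) :
    combVec a p + combVec b p = combVec (a ^^^ b) p + 2 * combVec (a &&& b) p := by
  simp only [combVec, ← List.sum_map_mul_left, ← List.sum_map_add]
  refine congrArg List.sum (List.map_congr_left fun i _ => ?_)
  simp only [Nat.testBit_xor, Nat.testBit_and]
  cases a.testBit i <;> cases b.testBit i <;> simp; ring

theorem comb_add (a b : Fin 256) : ∃ c, Cg (comb a + comb b) (comb c) := by
  refine ⟨⟨a.1 ^^^ b.1, Nat.xor_lt_two_pow (n := 8) a.2 b.2⟩,
    cg_of_eq (w := comb ⟨a.1 &&& b.1, Nat.and_lt_two_pow _ (n := 8) b.2⟩) fun i => ?_⟩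
  simp only [AddSubgroup.coe_add, Pi.add_apply, comb_coe]
  exact combVec_add a b i

theorem comb_zero : comb 0 = 0 := by
  refine Subtype.ext (funext fun p => ?_)
  simp [comb, combVec]

theorem comb_fixed : ∀ (m : Fin 256) (p : GolayPt), combVec m (gSymm p) = combVec m p := by
  decide +kernel

theorem gam_comb (m : Fin 256) : gam • comb m = comb m := by
  refine Subtype.ext (funext fun p => ?_)
  rw [gam_smul]
  exact comb_fixed m p

/-- The sum of the five images. -/
noncomputable def proj (v : leechLattice) : leechLattice :=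
  v + gam • v + gam • gam • v + gam • gam • gam • v + gam • gam • gam • gam • v

/-- The same on tables. -/
def projVec (x : GolayPt → ℤ) : GolayPt → ℤ := fun p =>
  x p + x (gSymm p) + x (gSymm (gSymm p)) +
    x (gSymm (gSymm (gSymm p))) +
    x (gSymm (gSymm (gSymm (gSymm p))))

theorem proj_coe (v : leechLattice) : (proj v : GolayPt → ℤ) = projVec v := by
  funext p
  simp only [proj, projVec, AddSubgroup.coe_add, Pi.add_apply, gam_smul]

theorem proj_add (u v : leechLattice) : proj (u + v) = proj u + proj v := by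
  simp only [proj, co0_map_add]
  abel

theorem proj_gens : ∀ g ∈ genList.zipIdx,
    ∃ m : Fin 256, m.1 = projL.getD g.2 0 ∧ CgOK (projVec g.1) (combVec m) := by
  have h : (genList.zipIdx.all fun g =>
      decide (projL.getD g.2 0 < 256) && decide (CgOK (projVec g.1) (combVec (projL.getD g.2 0)))) =
      true := by decide +kernel
  intro g hg
  have h1 := List.all_eq_true.1 h g hg
  rw [Bool.and_eq_true, decide_eq_true_eq, decide_eq_true_eq] at h1
  exact ⟨⟨_, h1.1⟩, rfl, h1.2⟩

theorem proj_comb (v : leechLattice) : ∃ m, Cg (proj v) (comb m) := by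
  let M : AddSubgroup leechLattice :=
    { carrier := {v | ∃ m, Cg (proj v) (comb m)}
      zero_mem' := ⟨0, by
        rw [comb_zero, show proj (0 : leechLattice) = 0 by simp [proj, co0_map_zero]]
        exact Cg.refl _⟩
      add_mem' := fun {u w} hu hw => by
        obtain ⟨a, ha⟩ := hu
        obtain ⟨b, hb⟩ := hw
        obtain ⟨c, hc⟩ := comb_add a b
        exact ⟨c, by rw [proj_add]; exact (ha.add hb).trans hc⟩
      neg_mem' := fun {u} hu => by
        obtain ⟨a, ha⟩ := hu
        refine ⟨a, ?_⟩
        have h0 : proj (-u) = -proj u := by simp only [proj, co0_map_neg]; abel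
        rw [h0]
        exact (cg_neg _).trans ha }
  have hle : leechLattice ≤ M.map leechLattice.subtype := by
    refine leech_le_of_genList fun x hx => ?_
    obtain ⟨k, hk, rfl⟩ := List.getElem_of_mem hx
    obtain ⟨m, -, hm⟩ := proj_gens (genList[k], k)
      (List.mem_zipIdx_iff_getElem?.2 (List.getElem?_eq_getElem hk))
    exact ⟨⟨_, genList_mem _ (List.getElem_mem hk)⟩,
      ⟨m, cg_of_ok (by rw [proj_coe]; exact hm)⟩, rfl⟩
  obtain ⟨w, hw, he⟩ := hle v.2
  rwa [show w = v from Subtype.ext he] at hw

/-- A class fixed by the element is the class of a combination. -/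
theorem fixed_class {v : leechLattice} (hv : Cg (gam • v) v) : ∃ m, Cg v (comb m) := by
  obtain ⟨m, hm⟩ := proj_comb v
  have h2 := (hv.smul gam).trans hv
  have h3 := (h2.smul gam).trans hv
  have h4 := (h3.smul gam).trans hv
  have h5 : Cg (proj v) (v + v + v + v + v) :=
    ((((Cg.refl v).add hv).add h2).add h3).add h4
  refine ⟨m, Cg.trans (Cg.trans ?_ h5.symm) hm⟩
  exact ⟨-(v + v), by abel⟩

/-- The coordinates of a class. -/
def code (v : leechLattice) (i : Fin 8) : ZMod 2 :=
  dotPar v (comb (Fin.ofNat 256 (dualL.getD i 0)))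

theorem code_cg {u v : leechLattice} (h : Cg u v) : code u = code v :=
  funext fun _ => dotPar_cg h _

theorem code_comb : ∀ (m : Fin 256) (i : Fin 8),
    code (comb m) i = if m.1.testBit i then 1 else 0 := by
  decide +kernel

theorem comb_cg_inj {a b : Fin 256} (h : Cg (comb a) (comb b)) : a = b := by
  refine Fin.ext (Nat.eq_of_testBit_eq fun i => ?_)
  by_cases hi : i < 8
  · have h1 := congrFun (code_cg h) ⟨i, hi⟩
    rw [code_comb, code_comb] at h1
    simp only at h1
    split_ifs at h1 <;> simp_all
  · have hbig : (2 : ℕ) ^ 8 ≤ 2 ^ i := Nat.pow_le_pow_right (by norm_num) (by omega)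
    rw [Nat.testBit_lt_two_pow (lt_of_lt_of_le a.2 hbig),
      Nat.testBit_lt_two_pow (lt_of_lt_of_le b.2 hbig)]

/-- The combinations other than zero with singular class. -/
def singList : List (Fin 256) :=
  (List.finRange 256).filter fun m => m != 0 && decide ((32 : ℤ) ∣ sqNorm (combVec m))

theorem singList_length : singList.length = 135 := by decide +kernel

end CfsgLib.Co0FiveFix81
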