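import Mathlib
import Cfsg.Agent.Leech.FrameGroup
import Cfsg.Agent.Blocks.SingleBlock.MathieuLocal
import Cfsg.Agent.Co0FiveFix81.Lattice

/-! The centraliser of the element of order 5 has order at most `135 * 16 * 60`. -/

set_option autoImplicit false

namespace CfsgLib.Co0FiveFix81

open Cfsg CfsgLib.Leech CfsgLib.Mathieu

theorem orderOf_twist : orderOf (cubeTwist : Equiv.Perm GolayPt) = 5 := by
  haveI : Fact (Nat.Prime 5) := ⟨by norm_num⟩
  refine orderOf_eq_prime (Equiv.ext ?_) ?_ <;> decide +kernel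

theorem fixed_twist : (fixedPts cubeTwist).card = 4 := by decide +kernel

/-- The number of the orbit of a point: four fixed points, then four cycles. -/
def orbTab : List ℕ :=
  [0, 4, 4, 1, 4, 5, 4, 5, 6, 6, 5, 7, 6, 6, 7, 2, 6, 7, 4, 7, 5, 5, 7, 3]

/-- The chosen point of each orbit. -/
def orbRep : List ℕ := [0, 3, 15, 23, 1, 5, 8, 11]

/-- The orbit of a point. -/
def orbNum (p : GolayPt) : Fin 8 := Fin.ofNat 8 (orbTab.getD (ptIdx p) 0)

/-- The chosen point. -/
def repPt (i : Fin 8) : GolayPt := idxPt (orbRep.getD i 0)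

theorem orbit_reach : ∀ p : GolayPt, ∃ k : Fin 5,
    gSymm^[k] p = repPt (orbNum p) := by decide +kernel

theorem invariant_eq {α : Type*} (f : GolayPt → α) (hf' : ∀ p, f (cubeTwist.symm p) = f p)
    (p : GolayPt) : f p = f (repPt (orbNum p)) := by
  have hf : ∀ p, f (gSymm p) = f p := fun p => gSymm_eq p ▸ hf' p
  obtain ⟨k, hk⟩ := orbit_reach p
  rw [← hk]
  generalize (k : ℕ) = n
  induction n with
  | zero => rfl
  | succ n ih => rw [Function.iterate_succ_apply', hf, ih]

/-- A choice of values on the orbits as a word. -/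
def orbWord (m : Fin 256) : GolayPt → ZMod 2 := fun p =>
  if m.1.testBit (orbNum p) then 1 else 0

/-- The choices giving code words. -/
def codeMasks : List (Fin 256) :=
  (List.finRange 256).filter fun m =>
    decide ((∀ t : ZMod 23, (∑ i, qrTab t i * orbWord m i) = 0) ∧ (∑ i, orbWord m i) = 0)

theorem codeMasks_length : codeMasks.length = 16 := by decide +kernel

/-- The invariant words of the code. -/
def FixWord : Type :=
  {c : GolayPt → ZMod 2 // c ∈ golayCode ∧ ∀ p, c (cubeTwist.symm p) = c p}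

theorem card_fixWord : Nat.card FixWord ≤ 16 := by
  classical
  have key : ∀ c : FixWord, ∃ m, m ∈ codeMasks ∧ c.1 = orbWord m := by
    rintro ⟨c, hc, hinv⟩
    obtain ⟨m, hm⟩ : ∃ m : Fin 256, ∀ i : Fin 8, m.1.testBit i = decide (c (repPt i) = 1) := by
      have hdec : ∀ f : Fin 8 → Bool, ∃ m : Fin 256, ∀ i : Fin 8, m.1.testBit i = f i := by
        intro f
        refine ⟨⟨∑ i : Fin 8, if f i then 2 ^ (i : ℕ) else 0, ?_⟩, ?_⟩
        · revert f; decide +kernel
        · revert f; decide +kernel
      exact hdec _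
    have he : c = orbWord m := by
      funext p
      rw [invariant_eq c hinv p, orbWord, hm]
      generalize c (repPt (orbNum p)) = x
      revert x; decide
    refine ⟨m, List.mem_filter.2 ⟨List.mem_finRange _, ?_⟩, he⟩
    obtain ⟨h1, h2⟩ := (mem_code_iff _).1 hc
    rw [decide_eq_true_eq]
    refine ⟨fun t => ?_, ?_⟩
    · have := h1 t
      rw [dot₂_apply] at this
      simp only [← qrTab_eq] at this
      rw [← he]; exact this
    · rw [dot₂_apply] at h2
      simp only [Pi.one_apply, one_mul] at h2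
      rw [← he]; exact h2
  choose m hm he using key
  have hinj : Function.Injective fun c : FixWord => (⟨m c, List.mem_toFinset.2 (hm c)⟩ : codeMasks.toFinset) :=
    fun c d h => Subtype.ext (by
      have h' := congrArg Subtype.val h
      rw [he c, he d]; exact congrArg orbWord h')
  refine (Nat.card_le_card_of_injective _ hinj).trans ?_
  rw [Nat.card_eq_fintype_card, Fintype.card_coe]
  exact (List.toFinset_card_le _).trans (le_of_eq codeMasks_length)

/-- A subgroup of order 8 of the symmetric group on four points has an element moving exactly two. -/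
theorem exists_swap_of_card_eight {α : Type*} [Fintype α] [DecidableEq α] (hα : Fintype.card α = 4)
    (H : Subgroup (Equiv.Perm α)) (hH : Nat.card H = 8) : ∃ a b, a ≠ b ∧ Equiv.swap a b ∈ H := by
  haveI : Fact (Nat.Prime 2) := ⟨Nat.prime_two⟩
  have hcard : Nat.card (Equiv.Perm α) = 24 := by
    rw [Nat.card_eq_fintype_card, Fintype.card_perm, hα]; rfl
  have hidx : ¬ 2 ∣ H.index := by
    have := H.card_mul_index
    rw [hH, hcard] at this
    omega
  let P : Sylow 2 (Equiv.Perm α) := (IsPGroup.of_card (n := 3) hH).toSylow hidx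
  obtain ⟨a, b, hab⟩ := Fintype.exists_pair_of_one_lt_card (α := α) (by omega)
  have h2 : IsPGroup 2 (Subgroup.zpowers (Equiv.swap a b)) := by
    refine IsPGroup.of_card (n := 1) ?_
    rw [Nat.card_zpowers, pow_one]
    exact orderOf_eq_prime (by rw [sq, Equiv.swap_mul_self]) fun h => hab (by
      have := Equiv.congr_fun h a
      simpa using this.symm)
  obtain ⟨S, hS⟩ := h2.exists_le_sylow
  obtain ⟨g, hg⟩ := MulAction.exists_smul_eq (Equiv.Perm α) S P
  refine ⟨g a, g b, fun h => hab (g.injective h), ?_⟩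
  show Equiv.swap (g a) (g b) ∈ (P : Subgroup _)
  rw [← hg, Sylow.coe_subgroup_smul, Equiv.swap_apply_apply]
  exact Subgroup.smul_mem_pointwise_smul _ (MulAut.conj g) _ (hS (Subgroup.mem_zpowers _))

/-- The number of points fixed in a union of whole orbits. -/
theorem fix_counts : ∀ a : Fin 8 → Bool,
    ((List.range 4).countP fun i => a (Fin.ofNat 8 i)) ∈ [2, 4] →
      (Finset.univ.filter fun p : GolayPt => a (orbNum p)).card ≠ 8 := by decide +kernel

/-- An injective map of four points fixing two of them fixes two or four. -/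
theorem four_fixes : ∀ s : Fin 4 → Fin 4, Function.Injective s →
    (∃ a b, a ≠ b ∧ s a = a ∧ s b = b) →
    ((List.finRange 4).countP fun i => decide (s i = i)) ∈ [2, 4] := by decide +kernel

theorem repPt_fixed : ∀ p : GolayPt, cubeTwist p = p ↔ ∃ a : Fin 4, repPt (a.castAdd 4) = p := by
  decide +kernel

theorem repPt_inj : ∀ a b : Fin 4, repPt (a.castAdd 4) = repPt (b.castAdd 4) → a = b := by
  decide +kernel

theorem no_involution {g : Equiv.Perm GolayPt} (hg : g ∈ M24) (hcomm : g * cubeTwist = cubeTwist * g)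
    (h2 : orderOf g = 2) {a b : Fin 4} (hab : a ≠ b) (ha : g (repPt (a.castAdd 4)) = repPt (a.castAdd 4))
    (hb : g (repPt (b.castAdd 4)) = repPt (b.castAdd 4)) : False := by
  have hs : ∀ p, g (cubeTwist.symm p) = cubeTwist.symm (g p) := fun p => by
    rw [Equiv.eq_symm_apply, ← Equiv.Perm.mul_apply cubeTwist g, ← hcomm]
    simp
  have hinv : ∀ p, decide (g (cubeTwist.symm p) = cubeTwist.symm p) = decide (g p = p) := fun p => by
    rw [decide_eq_decide, hs]
    exact cubeTwist.symm.injective.eq_iff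
  let f : Fin 8 → Bool := fun i => decide (g (repPt i) = repPt i)
  have hfix : fixedPts g = Finset.univ.filter fun p => f (orbNum p) := by
    ext p
    rw [mem_fixedPts, Finset.mem_filter, and_iff_right (Finset.mem_univ _),
      show f (orbNum p) = decide (g p = p) from
        (invariant_eq (fun p => decide (g p = p)) hinv p).symm, decide_eq_true_eq]
  have hfa : f (a.castAdd 4) = true := decide_eq_true ha
  have hfb : f (b.castAdd 4) = true := decide_eq_true hb
  have hne : (fixedPts g).card ≠ 0 := Finset.card_ne_zero_of_mem (mem_fixedPts.2 ha)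
  have h8 : (fixedPts g).card = 8 := by
    exact (fixedPts_mem_octads hg h2 hne).2
  refine fix_counts f ?_ (hfix ▸ h8)
  have hmap : ∀ i : Fin 4, ∃ j : Fin 4, repPt (j.castAdd 4) = g (repPt (i.castAdd 4)) := by
    intro i
    refine (repPt_fixed _).1 ?_
    rw [← Equiv.Perm.mul_apply, ← hcomm, Equiv.Perm.mul_apply, (repPt_fixed _).2 ⟨i, rfl⟩]
  choose s hs' using hmap
  have hinj : Function.Injective s := fun i j h => repPt_inj i j (g.injective (by rw [← hs', h, hs']))
  have hfs : ∀ i : Fin 4, f (i.castAdd 4) = decide (s i = i) := fun i => decide_eq_decide.2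
    ⟨fun h => repPt_inj _ _ ((hs' i).trans h), fun h => by rw [← hs' i, h]⟩
  have h4 := four_fixes s hinj ⟨a, b, hab, repPt_inj _ _ ((hs' a).trans ha),
    repPt_inj _ _ ((hs' b).trans hb)⟩
  convert h4 using 1
  rw [show List.range 4 = (List.finRange 4).map Fin.val by decide, List.countP_map]
  refine List.countP_congr fun i _ => ?_
  rw [Function.comp_apply, show Fin.ofNat 8 (i : ℕ) = i.castAdd 4 from
    Fin.ext (by simp [Fin.ofNat]; omega), hfs]

theorem divisors_120 : ∀ n < 121, n ∣ 120 → 2 ^ 3 ∣ n ∨ n ∣ 60 := by decide +kernel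

/-- The centraliser in `M24`. -/
def mCent : Subgroup (Equiv.Perm GolayPt) := M24 ⊓ Subgroup.centralizer {cubeTwist}

theorem card_mCent : Nat.card mCent ∣ 60 := by
  classical
  haveI : Fact (Nat.Prime 2) := ⟨Nat.prime_two⟩
  obtain ⟨m, hm, hr, hdvd⟩ := BlockLocal.card_centralizer_dvd (H := M24) le_rfl
    (by norm_num : Nat.Prime 5) orderOf_twist (by rw [fixed_twist]) (fixedPts cubeTwist) subset_rfl
    (fun g _ p hp hp' => absurd hp hp')
  rw [fixed_twist] at hdvd hm
  have hm2 : ¬ 2 ∣ m := by
    intro h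
    obtain ⟨g, hg, hgo, hgf⟩ := hr 2 Nat.prime_two h
    have := (fixedPts_mem_octads hg hgo (by rw [hgf, fixed_twist]; omega)).2
    rw [hgf, fixed_twist] at this
    omega
  have hm5 : m ∣ 5 := by
    have h20 : m ≤ 20 := Nat.le_of_dvd (by norm_num) hm
    interval_cases m <;> revert hm hm2 <;> decide
  have h120 : Nat.card mCent ∣ 120 :=
    hdvd.trans (show (4 : ℕ).factorial * m ∣ 120 from mul_dvd_mul_left 24 hm5)
  by_contra hno
  have h8 : 2 ^ 3 ∣ Nat.card mCent := by
    have hle := Nat.le_of_dvd (by norm_num) h120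
    exact (divisors_120 _ (by omega) h120).resolve_right hno
  obtain ⟨P, hP⟩ := Sylow.exists_subgroup_card_pow_prime 2 h8
  have hF : ∀ (g : P) (p : GolayPt), p ∈ fixedPts cubeTwist ↔
      ((g.1 : mCent) : Equiv.Perm GolayPt) p ∈ fixedPts cubeTwist := by
    intro g p
    have hc := Subgroup.mem_centralizer_singleton_iff.1 g.1.2.2
    rw [mem_fixedPts, mem_fixedPts, ← Equiv.Perm.mul_apply, ← hc, Equiv.Perm.mul_apply]
    exact ((g.1 : mCent) : Equiv.Perm GolayPt).injective.eq_iff.symm
  let res : P →* Equiv.Perm {p // p ∈ fixedPts cubeTwist} :=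
    { toFun := fun g => ((g.1 : mCent) : Equiv.Perm GolayPt).subtypePerm (fun p => (hF g p).symm)
      map_one' := rfl
      map_mul' := fun _ _ => rfl }
  have hpts : ∀ p : {p // p ∈ fixedPts cubeTwist}, ∃ a : Fin 4, repPt (a.castAdd 4) = p.1 := by
    decide +kernel
  have h2P : ∀ g : P, ∀ p q : {p // p ∈ fixedPts cubeTwist}, p ≠ q →
      res g p = p → res g q = q → orderOf g ≠ 2 := by
    intro g p q hpq hp hq ho
    obtain ⟨a, ha⟩ := hpts p
    obtain ⟨b, hb⟩ := hpts q
    refine no_involution g.1.2.1 (Subgroup.mem_centralizer_singleton_iff.1 g.1.2.2) ?_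
      (a := a) (b := b) ?_ ?_ ?_
    · rwa [Subgroup.orderOf_coe, Subgroup.orderOf_coe]
    · rintro rfl; exact hpq (Subtype.ext (ha.symm.trans hb))
    · rw [ha]; exact congrArg Subtype.val hp
    · rw [hb]; exact congrArg Subtype.val hq
  have h4 : Fintype.card {p // p ∈ fixedPts cubeTwist} = 4 := by
    rw [Fintype.card_coe, fixed_twist]
  have hinj : Function.Injective res := by
    rw [injective_iff_map_eq_one]
    intro g hg
    by_contra hne
    obtain ⟨k, hk⟩ := (IsPGroup.of_card hP : IsPGroup 2 P).exists_orderOf_eq_pow g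
    rcases k with _ | k
    · exact hne (orderOf_eq_one_iff.1 hk)
    · obtain ⟨p, q, hpq⟩ := Fintype.exists_pair_of_one_lt_card
        (α := {p // p ∈ fixedPts cubeTwist}) (by omega)
      refine h2P (g ^ 2 ^ k) p q hpq ?_ ?_ ?_
      · rw [map_pow, hg, one_pow]; rfl
      · rw [map_pow, hg, one_pow]; rfl
      · rw [orderOf_pow' _ (by positivity), hk,
          Nat.gcd_eq_right (pow_dvd_pow 2 (Nat.le_succ k)), pow_succ,
          Nat.mul_div_cancel_left _ (by positivity)]
  obtain ⟨a, b, hab, g, hg⟩ := exists_swap_of_card_eight h4 res.range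
    (by rw [← Nat.card_congr (MonoidHom.ofInjective hinj).toEquiv, hP]; norm_num)
  obtain ⟨c, d, hcd, hc, hd⟩ : ∃ c d, c ≠ d ∧ Equiv.swap a b c = c ∧ Equiv.swap a b d = d := by
    obtain ⟨c, d, hcd, hc, hd⟩ : ∃ c d, c ≠ d ∧ c ∉ ({a, b} : Finset _) ∧ d ∉ ({a, b} : Finset _) := by
      have : 1 < (({a, b} : Finset {p // p ∈ fixedPts cubeTwist})ᶜ).card := by
        rw [Finset.card_compl, h4, Finset.card_pair hab]; norm_num
      obtain ⟨c, hc, d, hd, hcd⟩ := Finset.one_lt_card.1 this
      exact ⟨c, d, hcd, Finset.mem_compl.1 hc, Finset.mem_compl.1 hd⟩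
    simp only [Finset.mem_insert, Finset.mem_singleton, not_or] at hc hd
    exact ⟨c, d, hcd, Equiv.swap_apply_of_ne_of_ne hc.1 hc.2, Equiv.swap_apply_of_ne_of_ne hd.1 hd.2⟩
  refine h2P g c d hcd (by rw [hg]; exact hc) (by rw [hg]; exact hd) ?_
  rw [← orderOf_injective res hinj, hg]
  exact orderOf_eq_prime (by rw [sq, Equiv.swap_mul_self]) fun h => hab (by
    have := Equiv.congr_fun h a
    simpa using this.symm)

theorem card_frame_cent :
    Nat.card ↥(Subgroup.centralizer {gam} ⊓ frameStab) ≤ 16 * 60 := by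
  classical
  haveI : Finite FixWord := by unfold FixWord; infer_instance
  have key : ∀ g : ↥(Subgroup.centralizer {gam} ⊓ frameStab),
      ∃ x : golayCode × M24, g.1 = monomial x ∧ x.2.1 ∈ mCent ∧
        ∀ p, x.1.1 (cubeTwist.symm p) = x.1.1 p := by
    intro g
    obtain ⟨x, hx⟩ := frame_decomp g.2.2
    have hγ : gam = monomial (0, ⟨cubeTwist, cubeTwist_mem⟩) := by
      rw [monomial, gam]
      show _ = signs (0 : GolayPt → ZMod 2) (zero_mem _) * _
      rw [signs_zero, one_mul]
    have hc := Subgroup.mem_centralizer_singleton_iff.1 g.2.1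
    rw [hx, hγ, monomial_mul, monomial_mul] at hc
    have h := monomial_injective hc
    refine ⟨x, hx, ⟨x.2.2, ?_⟩, fun p => ?_⟩
    · show x.2.1 ∈ Subgroup.centralizer {cubeTwist}
      rw [Subgroup.mem_centralizer_singleton_iff]
      exact congrArg Subtype.val (congrArg Prod.snd h)
    · have h1 := congrFun (congrArg Subtype.val (congrArg Prod.fst h)) p
      simpa using h1.symm
  choose x hx hσ hc using key
  let F : ↥(Subgroup.centralizer {gam} ⊓ frameStab) → FixWord × mCent :=
    fun g => (⟨(x g).1.1, (x g).1.2, hc g⟩, ⟨(x g).2.1, hσ g⟩)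
  have hinj : Function.Injective F := fun g h e => by
    have e1 : (x g).1.1 = (x h).1.1 := congrArg (fun y : FixWord × mCent => y.1.val) e
    have e2 : (x g).2.1 = (x h).2.1 := congrArg (fun y : FixWord × mCent => y.2.val) e
    refine Subtype.ext ?_
    rw [hx g, hx h, Prod.ext (Subtype.ext e1) (Subtype.ext e2)]
  refine (Nat.card_le_card_of_injective F hinj).trans ?_
  rw [Nat.card_prod]
  exact Nat.mul_le_mul card_fixWord (Nat.le_of_dvd (by norm_num) card_mCent)

theorem axis_not_zero (g : Co0) : ¬ Cg (g • axisVec none) (comb 0) := by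
  intro h
  rw [comb_zero] at h
  have h1 := dotPar_cg h (g • oddElt)
  rw [dotPar_smul, dotPar_axis, dotPar_zero_left] at h1
  revert h1; decide +kernel

theorem gam_axis : gam • axisVec none = axisVec none := by
  refine Subtype.ext (funext fun p => ?_)
  rw [gam_smul]
  revert p; decide +kernel

theorem card_cent_le : Nat.card (Subgroup.centralizer ({gam} : Set Co0)) ≤ 135 * (16 * 60) := by
  classical
  set C := Subgroup.centralizer ({gam} : Set Co0)
  have key : ∀ g : C, ∃ m : Fin 256, m ∈ singList ∧ Cg ((g : Co0) • axisVec none) (comb m) := by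
    intro g
    have hc := Subgroup.mem_centralizer_singleton_iff.1 g.2
    obtain ⟨m, hm⟩ := fixed_class (v := (g : Co0) • axisVec none) (by
      rw [← mul_smul, ← hc, mul_smul, gam_axis]; exact Cg.refl _)
    refine ⟨m, List.mem_filter.2 ⟨List.mem_finRange _, ?_⟩, hm⟩
    rw [Bool.and_eq_true, decide_eq_true_eq]
    refine ⟨bne_iff_ne.2 fun h0 => axis_not_zero _ (h0 ▸ hm), ?_⟩
    have := hm.sqNorm_iff.1 (by rw [co0_sqNorm, sqNorm_axisVec]; norm_num)
    simpa [comb_coe] using this
  choose m hm hcg using key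
  have hex : ∀ n : Fin 256, ∃ r : C, ∀ g : C, m g = n → m r = n := fun n => by
    by_cases h : ∃ g, m g = n
    · exact ⟨h.choose, fun _ _ => h.choose_spec⟩
    · exact ⟨1, fun g hg => absurd ⟨g, hg⟩ h⟩
  choose r hr using hex
  let F : C → singList.toFinset × ↥(C ⊓ frameStab) := fun g =>
    (⟨m g, List.mem_toFinset.2 (hm g)⟩, ⟨(r (m g) : Co0)⁻¹ * (g : Co0),
      ⟨C.mul_mem (C.inv_mem (r (m g)).2) g.2, by
        show _ ∈ frameStab
        rw [mem_frameStab, mul_smul]
        have h1 := (hcg g).trans ((congrArg comb (hr _ g rfl)).symm ▸ (hcg (r (m g))).symm)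
        have h2 := h1.smul (r (m g) : Co0)⁻¹
        rwa [inv_smul_smul] at h2⟩⟩)
  have hinj : Function.Injective F := fun g h e => by
    have e1 : m g = m h := congrArg (fun y => (y.1 : Fin 256)) e
    have e2 : (r (m g) : Co0)⁻¹ * (g : Co0) = (r (m h) : Co0)⁻¹ * (h : Co0) :=
      congrArg (fun y => ((y.2 : ↥(C ⊓ frameStab)) : Co0)) e
    refine Subtype.ext ?_
    rw [e1] at e2
    exact mul_left_cancel e2
  refine (Nat.card_le_card_of_injective F hinj).trans ?_
  rw [Nat.card_prod, Nat.card_eq_fintype_card, Fintype.card_coe]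
  exact Nat.mul_le_mul ((List.toFinset_card_le _).trans (le_of_eq singList_length)) card_frame_cent

end CfsgLib.Co0FiveFix81
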