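import Mathlib
import Cfsg.Agent.Co0Five.Mat
import Cfsg.Agent.Co0FiveFix81.Lattice

/-! The table checks for the three elements. -/

set_option autoImplicit false

namespace CfsgLib.Co0FiveFix81

open Cfsg CfsgLib.Leech CfsgLib.Co0Five

/-- The ten points. -/
abbrev Pts : Type := Fin 5 ⊕ Fin 5

/-- The number of a point. -/
def ptNum : Pts → ℕ
  | .inl i => i
  | .inr i => i + 5

/-- A three-cycle. -/
def permA : Equiv.Perm (Fin 5) :=
  ⟨![0, 4, 2, 1, 3], ![0, 3, 2, 4, 1], by decide, by decide⟩

/-- A five-cycle. -/
def permB : Equiv.Perm (Fin 5) :=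
  ⟨![3, 0, 4, 2, 1], ![1, 4, 3, 0, 2], by decide, by decide⟩

/-- A table sends each set as the permutation says. -/
def SendOK (rows : List (List ℤ)) (k : ℕ) (π : Equiv.Perm Pts) : Bool :=
  (List.finRange 10).all fun j =>
    (setsL.getD j.1 []).zipIdx.all fun m =>
      let r := ((imgL.getD k []).getD j.1 []).getD m.2 0
      decide (CgOK (matFun rows (combVec m.1)) (combVec r)) &&
        decide (r < 256) &&
        decide (r ∈ setsL.getD (ptNum (π (finSumFinEquiv.symm j))) [])

/-- Commutation of a table with the permutation, on the axes. -/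
def CommOK (rows : List (List ℤ)) : Prop :=
  ∀ i k : GolayPt, matFun rows (fun p => (single i 8) (gSymm p)) k =
    matFun rows (single i 8) (gSymm k)

instance decidableCommOK (rows : List (List ℤ)) : Decidable (CommOK rows) := by
  unfold CommOK; infer_instance

theorem okX : MatOK rowsX colsX :=
  ⟨by decide +kernel, by decide +kernel, by decide +kernel, by decide +kernel, by decide +kernel⟩

theorem okY : MatOK rowsY colsY :=
  ⟨by decide +kernel, by decide +kernel, by decide +kernel, by decide +kernel, by decide +kernel⟩

theorem okT : MatOK rowsT colsT :=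
  ⟨by decide +kernel, by decide +kernel, by decide +kernel, by decide +kernel, by decide +kernel⟩

theorem sendX : SendOK rowsX 0 (Equiv.Perm.sumCongr permA permB) = true := by decide +kernel

theorem commX : CommOK rowsX := by decide +kernel

theorem sendY : SendOK rowsY 1 (Equiv.Perm.sumCongr permB permA) = true := by decide +kernel

theorem commY : CommOK rowsY := by decide +kernel

theorem sendT : SendOK rowsT 2 (Equiv.sumComm (Fin 5) (Fin 5)) = true := by decide +kernel

theorem commT : CommOK rowsT := by decide +kernel

end CfsgLib.Co0FiveFix81
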