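import Mathlib
import Cfsg.Agent.Co0FiveFix81.Cert

/-! Three elements commuting with the element of order 5, and their action on ten sets of fixed
classes: two rulings of five. -/

set_option autoImplicit false

namespace CfsgLib.Co0FiveFix81

open Cfsg CfsgLib.Leech CfsgLib.Co0Five

/-- First element. -/
noncomputable def eX : Co0 := matCo0 okX

/-- Second element. -/
noncomputable def eY : Co0 := matCo0 okY

/-- The element exchanging the rulings. -/
noncomputable def eT : Co0 := matCo0 okT

theorem commute_of_ok {rows cols : List (List ℤ)} (h : MatOK rows cols) (hc : CommOK rows) :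
    matCo0 h * gam = gam * matCo0 h := by
  refine co0_ext fun i => Subtype.ext (funext fun k => ?_)
  rw [mul_smul, mul_smul, matCo0_smul, gam_smul, matCo0_smul]
  rw [show ((gam • axisVec i : leechLattice) : GolayPt → ℤ) =
    fun p => (single i 8) (gSymm p) from funext fun p => gam_smul _ p]
  exact hc i k

theorem eX_comm : eX * gam = gam * eX := commute_of_ok okX commX

theorem eY_comm : eY * gam = gam * eY := commute_of_ok okY commY

theorem eT_comm : eT * gam = gam * eT := commute_of_ok okT commT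

/-- A combination lies in a set. -/
def InSet (j : Pts) (m : Fin 256) : Prop := m.1 ∈ setsL.getD (ptNum j) []

instance decidableInSet (j : Pts) (m : Fin 256) : Decidable (InSet j m) := by
  unfold InSet; infer_instance

theorem inSet_sub : ∀ j k : Pts, (∀ m, InSet j m → InSet k m) → j = k := by decide +kernel

/-- The lattice vectors over a set. -/
def SV (j : Pts) : Set leechLattice := {v | ∃ m, InSet j m ∧ Cg v (comb m)}

theorem sv_sub {j k : Pts} (h : SV j ⊆ SV k) : j = k := by
  refine inSet_sub j k fun m hm => ?_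
  obtain ⟨m', hm', hc⟩ := h ⟨m, hm, Cg.refl _⟩
  exact comb_cg_inj hc ▸ hm'

/-- An element permutes the sets as given. -/
def Induces (g : Co0) (π : Equiv.Perm Pts) : Prop := ∀ j v, v ∈ SV j → g • v ∈ SV (π j)

theorem Induces.one : Induces 1 1 := fun j v hv => by simpa using hv

theorem Induces.mul {g h : Co0} {π ρ : Equiv.Perm Pts} (a : Induces g π) (b : Induces h ρ) :
    Induces (g * h) (π * ρ) := fun j v hv => by
  rw [mul_smul]
  exact a _ _ (b j v hv)

theorem Induces.pow {g : Co0} {π : Equiv.Perm Pts} (a : Induces g π) :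
    ∀ n : ℕ, Induces (g ^ n) (π ^ n)
  | 0 => by simpa using Induces.one
  | n + 1 => by rw [pow_succ, pow_succ]; exact (a.pow n).mul a

theorem Induces.unique {g : Co0} {π π' ρ : Equiv.Perm Pts} (a : Induces g π)
    (a' : Induces g π') (b : Induces g⁻¹ ρ) : π = π' := by
  have key : ∀ σ : Equiv.Perm Pts, Induces g σ → ∀ j, ρ (σ j) = j := fun σ hσ j =>
    (sv_sub fun v hv => by
      have := b _ _ (hσ j v hv)
      rwa [inv_smul_smul] at this).symm
  exact Equiv.ext fun j => ρ.injective ((key π a j).trans (key π' a' j).symm)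

/-- The elements permuting the ten sets. -/
def setsGroup : Subgroup Co0 where
  carrier := {g | (∃ π, Induces g π) ∧ ∃ π, Induces g⁻¹ π}
  one_mem' := ⟨⟨1, Induces.one⟩, ⟨1, by rw [inv_one]; exact Induces.one⟩⟩
  mul_mem' := fun {g h} hg hh => by
    obtain ⟨⟨π, a⟩, π', a'⟩ := hg
    obtain ⟨⟨ρ, b⟩, ρ', b'⟩ := hh
    exact ⟨⟨_, a.mul b⟩, _, by rw [mul_inv_rev]; exact b'.mul a'⟩
  inv_mem' := fun {g} hg => ⟨hg.2, by rw [inv_inv]; exact hg.1⟩

theorem mem_setsGroup_of_induces {g : Co0} {π : Equiv.Perm Pts} (a : Induces g π) :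
    g ∈ setsGroup := by
  haveI : Finite Co0 := CfsgLib.Leech.finite_co0
  obtain ⟨n, hn⟩ : ∃ n : ℕ, g ^ n = g⁻¹ :=
    mem_powers_iff_mem_zpowers.2 (inv_mem (Subgroup.mem_zpowers g))
  exact ⟨⟨π, a⟩, _, hn ▸ a.pow n⟩

/-- The action on the ten sets. -/
noncomputable def ptsHom : setsGroup →* Equiv.Perm Pts where
  toFun g := g.2.1.choose
  map_one' := (1 : setsGroup).2.1.choose_spec.unique Induces.one (1 : setsGroup).2.2.choose_spec
  map_mul' g h := (g * h).2.1.choose_spec.unique
    (g.2.1.choose_spec.mul h.2.1.choose_spec) (g * h).2.2.choose_spec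

theorem ptsHom_eq {g : setsGroup} {π : Equiv.Perm Pts} (a : Induces g.1 π) : ptsHom g = π :=
  g.2.1.choose_spec.unique a g.2.2.choose_spec

theorem induces_of_ok {rows cols : List (List ℤ)} (h : MatOK rows cols) {k : ℕ}
    {π : Equiv.Perm Pts} (hk : SendOK rows k π = true) : Induces (matCo0 h) π := by
  rintro j v ⟨m, hm, hc⟩
  have hn : finSumFinEquiv.symm (finSumFinEquiv j : Fin 10) = j :=
    Equiv.symm_apply_apply _ _
  have hnum : ((finSumFinEquiv j : Fin 10) : ℕ) = ptNum j := by
    rcases j with i | i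
    · rw [finSumFinEquiv_apply_left]; rfl
    · rw [finSumFinEquiv_apply_right, Fin.val_natAdd]; simp only [ptNum]; omega
  have h1 := List.all_eq_true.1 hk (finSumFinEquiv j : Fin 10) (List.mem_finRange _)
  obtain ⟨i, hi, he⟩ := List.getElem_of_mem hm
  have h2 := List.all_eq_true.1 h1 (m.1, i) (by
    rw [hnum]
    exact List.mem_zipIdx_iff_getElem?.2 (by rw [List.getElem?_eq_getElem hi, he]))
  simp only [Bool.and_eq_true, decide_eq_true_eq, hn] at h2
  obtain ⟨⟨h3, h4⟩, h5⟩ := h2
  exact ⟨⟨_, h4⟩, h5, (hc.smul _).trans (cg_of_ok (by rw [matCo0_smul]; exact h3))⟩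

theorem eX_induces : Induces eX (Equiv.Perm.sumCongr permA permB) :=
  induces_of_ok okX sendX

theorem eY_induces : Induces eY (Equiv.Perm.sumCongr permB permA) :=
  induces_of_ok okY sendY

theorem eT_induces : Induces eT (Equiv.sumComm (Fin 5) (Fin 5)) :=
  induces_of_ok okT sendT

theorem gam_induces : Induces gam 1 := by
  rintro j v ⟨m, hm, hc⟩
  exact ⟨m, hm, by have := hc.smul gam; rwa [gam_comb] at this⟩

theorem negOne_induces : Induces negOne 1 := by
  rintro j v ⟨m, hm, hc⟩
  exact ⟨m, hm, by rw [negOne_smul]; exact (cg_neg v).trans hc⟩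

theorem fixes_of_trivial {g : Co0} (h : ∀ v, Cg (gam • v) v → Cg (g • v) v) : Induces g 1 := by
  rintro j v ⟨m, hm, hc⟩
  refine ⟨m, hm, (hc.smul g).trans (h _ ?_)⟩
  rw [gam_comb]
  exact Cg.refl _

end CfsgLib.Co0FiveFix81
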