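import Mathlib
import Cfsg.Prelude.Def_MonsterType
import Cfsg.Agent.Eq.Def_MonsterType

/-! The wreath product of the alternating group of degree 5 by a group of order 2. -/

set_option autoImplicit false

namespace CfsgLib.Co0FiveFix81

open Cfsg Equiv Equiv.Perm

/-- A pair of even permutations, placed side by side. -/
def pairHom : alternatingGroup (Fin 5) × alternatingGroup (Fin 5) →* Perm (Fin 5 ⊕ Fin 5) :=
  (sumCongrHom (Fin 5) (Fin 5)).comp
    ((alternatingGroup (Fin 5)).subtype.prodMap (alternatingGroup (Fin 5)).subtype)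

theorem pairHom_apply (σ τ : alternatingGroup (Fin 5)) :
    pairHom (σ, τ) = Equiv.Perm.sumCongr (σ : Perm (Fin 5)) τ := rfl

theorem pairHom_injective : Function.Injective pairHom := fun _ _ h => by
  have := sumCongrHom_injective h
  simp only [MonoidHom.coe_prodMap, Prod.map, Prod.mk.injEq] at this
  exact Prod.ext (Subtype.ext this.1) (Subtype.ext this.2)

theorem pairHom_mem (x : alternatingGroup (Fin 5) × alternatingGroup (Fin 5)) :
    pairHom x ∈ alternatingFiveWreathTwo :=
  Subgroup.subset_closure (Or.inl ⟨x.1, x.2, rfl⟩)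

theorem comm_mem : sumComm (Fin 5) (Fin 5) ∈ alternatingFiveWreathTwo :=
  Subgroup.subset_closure (Or.inr rfl)

theorem comm_pair (σ τ : alternatingGroup (Fin 5)) :
    sumComm (Fin 5) (Fin 5) * pairHom (σ, τ) * (sumComm (Fin 5) (Fin 5))⁻¹ = pairHom (τ, σ) := by
  rw [mul_inv_eq_iff_eq_mul]
  exact Equiv.ext fun p => by rcases p with p | p <;> rfl

theorem card_alt_five : Nat.card (alternatingGroup (Fin 5)) = 60 := by
  rw [nat_card_alternatingGroup, Nat.card_fin]; rfl

theorem card_wreath_ge : 7200 ≤ Nat.card alternatingFiveWreathTwo := by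
  let F : (alternatingGroup (Fin 5) × alternatingGroup (Fin 5)) × Bool → alternatingFiveWreathTwo :=
    fun x => ⟨pairHom x.1 * (if x.2 then sumComm (Fin 5) (Fin 5) else 1),
      mul_mem (pairHom_mem _) (by split_ifs; exacts [comm_mem, one_mem _])⟩
  have hF : Function.Injective F := by
    rintro ⟨⟨σ, τ⟩, a⟩ ⟨⟨σ', τ'⟩, b⟩ h
    have h' := congrArg Subtype.val h
    simp only [F] at h'
    have h0 := Equiv.congr_fun h' (Sum.inl 0)
    cases a <;> cases b <;> simp [pairHom_apply] at h0
    all_goals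
      simp only [mul_right_cancel_iff, Bool.false_eq_true, if_true, if_false, mul_one] at h'
      rw [Prod.ext_iff]
      exact ⟨pairHom_injective h', rfl⟩
  refine le_trans (le_of_eq ?_) (Nat.card_le_card_of_injective F hF)
  rw [Nat.card_prod, Nat.card_prod, card_alt_five, Nat.card_eq_fintype_card, Fintype.card_bool]

/-- No proper subgroup of the alternating group of degree 5 contains elements of orders 3 and 5. -/
theorem alt_five_top (J : Subgroup (alternatingGroup (Fin 5))) {a b : alternatingGroup (Fin 5)}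
    (ha : a ∈ J) (hb : b ∈ J) (ha3 : orderOf a = 3) (hb5 : orderOf b = 5) : J = ⊤ := by
  by_contra hJ
  have h15 : 15 ∣ Nat.card J :=
    (Nat.Coprime.mul_dvd_of_dvd_of_dvd (by norm_num : Nat.Coprime 3 5)
      (by have := Subgroup.orderOf_dvd_natCard J ha; rwa [ha3] at this) (by have := Subgroup.orderOf_dvd_natCard J hb; rwa [hb5] at this))
  have hmul := J.card_mul_index
  rw [card_alt_five] at hmul
  have hidx : J.index ≤ 4 := by
    obtain ⟨k, hk⟩ := h15
    have hk1 : 1 ≤ k := by
      rcases Nat.eq_zero_or_pos k with rfl | h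
      · rw [mul_zero] at hk; exact absurd hk Nat.card_pos.ne'
      · exact h
    rw [hk] at hmul
    nlinarith
  haveI : IsSimpleGroup (alternatingGroup (Fin 5)) := alternatingGroup.isSimpleGroup (by simp)
  rcases (inferInstance : IsSimpleGroup (alternatingGroup (Fin 5))).eq_bot_or_eq_top_of_normal
      J.normalCore inferInstance with h | h
  · have hinj : Function.Injective (MulAction.toPermHom (alternatingGroup (Fin 5))
        (alternatingGroup (Fin 5) ⧸ J)) := by
      rw [← MonoidHom.ker_eq_bot_iff, ← Subgroup.normalCore_eq_ker, h]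
    have hle := Subgroup.card_dvd_of_injective _ hinj
    rw [card_alt_five, Nat.card_perm, ← Subgroup.index_eq_card] at hle
    interval_cases J.index <;> simp_all [Nat.factorial]
  · exact hJ (top_le_iff.1 (h ▸ J.normalCore_le))

/-- A normal 2-subgroup of the wreath product is trivial. -/
theorem wreath_core (T : Subgroup alternatingFiveWreathTwo) [T.Normal] (hT : IsPGroup 2 T) :
    T = ⊥ := by
  classical
  haveI : Fact (Nat.Prime 2) := ⟨Nat.prime_two⟩
  set A := alternatingGroup (Fin 5)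
  haveI : IsSimpleGroup A := alternatingGroup.isSimpleGroup (by simp)
  let ι : A × A →* alternatingFiveWreathTwo := pairHom.codRestrict _ pairHom_mem
  have hι : Function.Injective ι := fun a b h => pairHom_injective (congrArg Subtype.val h)
  let sw : alternatingFiveWreathTwo := ⟨_, comm_mem⟩
  have hsw : ∀ σ τ : A, sw * ι (σ, τ) * sw⁻¹ = ι (τ, σ) := fun σ τ => Subtype.ext (comm_pair σ τ)
  have hnot2 : ¬ IsPGroup 2 A := by
    intro h
    obtain ⟨n, hn⟩ := h.exists_card_eq
    rw [card_alt_five] at hn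
    have : 3 ∣ 2 ^ n := hn ▸ by norm_num
    have := Nat.le_of_dvd (by norm_num) (Nat.prime_three.dvd_of_dvd_pow this)
    omega
  have hcomm : ∀ α : A, (∀ σ : A, α * σ * α⁻¹ * σ⁻¹ = 1) → α = 1 := by
    intro α hα
    have hmem : α ∈ Subgroup.center A := Subgroup.mem_center_iff.2 fun σ => by
      have h1 := hα σ
      rw [mul_inv_eq_one, mul_inv_eq_iff_eq_mul] at h1
      exact h1.symm
    rcases (inferInstance : IsSimpleGroup A).eq_bot_or_eq_top_of_normal (Subgroup.center A)
        inferInstance with h | h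
    · rwa [h, Subgroup.mem_bot] at hmem
    · exfalso
      have hab : ∀ a b : A, a * b = b * a := fun a b =>
        (Subgroup.mem_center_iff.1 (h ▸ Subgroup.mem_top b) a)
      have hn : ¬ ∀ a b : A, a * b = b * a := by decide +kernel
      exact hn hab
  have hL : ∀ σ : A, ι (σ, 1) ∈ T → σ = 1 := by
    intro σ hσ
    haveI hN : (T.comap (ι.comp (MonoidHom.inl A A))).Normal := Subgroup.Normal.comap ‹_› _
    have hp : IsPGroup 2 (T.comap (ι.comp (MonoidHom.inl A A))) :=
      hT.comap_of_injective _ (hι.comp fun a b e => congrArg Prod.fst e)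
    rcases hN.eq_bot_or_eq_top with h | h
    · exact (Subgroup.mem_bot.1 (h ▸ (hσ : σ ∈ T.comap (ι.comp (MonoidHom.inl A A)))))
    · exact absurd (IsPGroup.of_equiv (h ▸ hp) Subgroup.topEquiv) hnot2
  have hR : ∀ τ : A, ι (1, τ) ∈ T → τ = 1 := fun τ hτ =>
    hL τ (by rw [← hsw 1 τ]; exact ‹T.Normal›.conj_mem _ hτ sw)
  have hpair : ∀ α β : A, ι (α, β) ∈ T → α = 1 ∧ β = 1 := by
    intro α β h
    refine ⟨hcomm α fun σ => hL _ ?_, hcomm β fun σ => hR _ ?_⟩
    · have := mul_mem h (‹T.Normal›.conj_mem _ (inv_mem h) (ι (σ, 1)))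
      simp only [← map_inv, ← map_mul, Prod.mk_mul_mk, Prod.inv_mk, inv_one, one_mul, mul_one,
        mul_inv_cancel, ← mul_assoc] at this
      exact this
    · have := mul_mem h (‹T.Normal›.conj_mem _ (inv_mem h) (ι (1, σ)))
      simp only [← map_inv, ← map_mul, Prod.mk_mul_mk, Prod.inv_mk, inv_one, one_mul, mul_one,
        mul_inv_cancel, ← mul_assoc] at this
      exact this
  have hdecomp : ∀ g : alternatingFiveWreathTwo, ∃ x, g = ι x ∨ g = ι x * sw := by
    rintro ⟨g, hg⟩
    induction hg using Subgroup.closure_induction with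
    | mem g hg =>
      rcases hg with ⟨σ, τ, rfl⟩ | rfl
      · exact ⟨(σ, τ), Or.inl rfl⟩
      · exact ⟨1, Or.inr (Subtype.ext (by simp [ι, sw]))⟩
    | one => exact ⟨1, Or.inl (Subtype.ext (by simp))⟩
    | mul g h hg hh ihg ihh =>
      obtain ⟨⟨a, b⟩, hx⟩ := ihg
      obtain ⟨⟨c, d⟩, hy⟩ := ihh
      have hs : ∀ u v : A, sw * ι (u, v) = ι (v, u) * sw := fun u v => by rw [← hsw u v]; group
      have hss : sw * sw = 1 := Subtype.ext (Equiv.ext fun p => by rcases p with p | p <;> rfl)
      rcases hx with hx | hx <;> rcases hy with hy | hy <;>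
        rw [show (⟨g * h, _⟩ : alternatingFiveWreathTwo) = ⟨g, hg⟩ * ⟨h, hh⟩ from rfl, hx, hy]
      · exact ⟨_, Or.inl (map_mul ι _ _).symm⟩
      · exact ⟨_, Or.inr (by rw [← mul_assoc, ← map_mul])⟩
      · exact ⟨_, Or.inr (by rw [mul_assoc, hs, ← mul_assoc, ← map_mul])⟩
      · exact ⟨(a, b) * (d, c), Or.inl (by
          rw [mul_assoc, ← mul_assoc sw, hs, mul_assoc (ι (d, c)), hss, mul_one, ← map_mul])⟩
    | inv g hg ihg =>
      obtain ⟨⟨a, b⟩, hx⟩ := ihg
      rcases hx with hx | hx <;>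
        rw [show (⟨g⁻¹, _⟩ : alternatingFiveWreathTwo) = (⟨g, hg⟩ : alternatingFiveWreathTwo)⁻¹
          from rfl, hx]
      · exact ⟨_, Or.inl (map_inv ι _).symm⟩
      · refine ⟨(b⁻¹, a⁻¹), Or.inr ?_⟩
        have hswi : sw⁻¹ = sw := inv_eq_of_mul_eq_one_left
          (Subtype.ext (Equiv.ext fun p => by rcases p with p | p <;> rfl))
        rw [mul_inv_rev, ← map_inv, hswi, ← hsw a⁻¹ b⁻¹]
        simp only [Prod.inv_mk]
        group
  refine T.eq_bot_iff_forall.2 fun g hg => ?_
  obtain ⟨⟨α, β⟩, rfl | rfl⟩ := hdecomp g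
  · obtain ⟨rfl, rfl⟩ := hpair α β hg
    exact map_one ι
  · exfalso
    obtain ⟨σ, hσ⟩ : ∃ σ : A, σ ≠ 1 := exists_ne 1
    have h2 := mul_mem (‹T.Normal›.conj_mem _ hg (ι (σ, 1))) (inv_mem hg)
    have e : ι (σ, 1) * (ι (α, β) * sw) * (ι (σ, 1))⁻¹ * (ι (α, β) * sw)⁻¹ =
        ι (σ, β * σ⁻¹ * β⁻¹) := by
      calc _ = ι (σ, 1) * ι (α, β) * (sw * ι (σ⁻¹, 1) * sw⁻¹) * (ι (α, β))⁻¹ := by
            rw [show (σ⁻¹, (1 : A)) = (σ, (1 : A))⁻¹ by simp, map_inv]; group
        _ = _ := by
          rw [hsw, ← map_inv, ← map_mul, ← map_mul, ← map_mul]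
          simp
    rw [e] at h2
    exact hσ (hpair _ _ h2).1

end CfsgLib.Co0FiveFix81
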