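import Mathlib
import Cfsg.Agent.MonsterCent13.Generic
import Cfsg.Agent.Co0FiveFix81.Elements
import Cfsg.Agent.Co0FiveFix81.Bound
import Cfsg.Agent.Co0FiveFix81.Wreath

/-! The centraliser of an element of shape `1^4 5^4`, modulo itself and the centre, is the wreath
product of the alternating group of degree 5 by a group of order 2, faithful on the fixed classes. -/

set_option autoImplicit false

namespace CfsgLib.Co0FiveFix81

open Cfsg CfsgLib.Leech CfsgLib.MonsterCent13

/-- The centraliser. -/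
noncomputable abbrev gamCent : Subgroup Co0 := Subgroup.centralizer ({gam} : Set Co0)

/-- `± ⟨gam⟩`. -/
noncomputable abbrev gamBase : Subgroup Co0 := Subgroup.center Co0 ⊔ Subgroup.zpowers gam

theorem gamBase_le : gamBase ≤ gamCent ⊓ setsGroup := by
  refine sup_le ?_ ?_
  · intro c hc
    refine ⟨Subgroup.mem_centralizer_singleton_iff.2 (Subgroup.mem_center_iff.1 hc gam).symm, ?_⟩
    rcases center_co0_cases hc with rfl | rfl
    · exact one_mem _
    · exact mem_setsGroup_of_induces negOne_induces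
  · rw [Subgroup.zpowers_le]
    exact ⟨Subgroup.mem_centralizer_singleton_iff.2 rfl, mem_setsGroup_of_induces gam_induces⟩

theorem negOne_mem_gamBase : negOne ∈ gamBase :=
  Subgroup.mem_sup_left negOne_central

theorem orderOf_negOne : orderOf negOne = 2 := by
  refine orderOf_eq_prime (co0_ext fun i => ?_) fun h => ?_
  · rw [pow_two, mul_smul, negOne_smul, negOne_smul, neg_neg, one_smul]
  · have h1 := congrArg (fun g : Co0 => ((g • axisVec none : leechLattice) : GolayPt → ℤ) none) h
    simp [negOne_smul, axisVec, single] at h1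

theorem card_gamBase : 10 ∣ Nat.card gamBase := by
  have h2 := Subgroup.orderOf_dvd_natCard gamBase negOne_mem_gamBase
  have h5 := Subgroup.orderOf_dvd_natCard gamBase (Subgroup.mem_sup_right (Subgroup.mem_zpowers gam))
  rw [orderOf_negOne] at h2
  rw [orderOf_gam] at h5
  exact Nat.Coprime.mul_dvd_of_dvd_of_dvd (by norm_num : Nat.Coprime 2 5) h2 h5

/-- The centralising elements permuting the ten sets. -/
noncomputable abbrev setsCent : Subgroup Co0 := gamCent ⊓ setsGroup

/-- The action of the centralising elements. -/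
noncomputable def centPts : setsCent →* Equiv.Perm Pts :=
  ptsHom.comp (Subgroup.inclusion inf_le_right)

theorem centPts_eq {g : Co0} (hg : g ∈ gamCent) {π : Equiv.Perm Pts} (a : Induces g π) :
    π ∈ centPts.range :=
  ⟨⟨g, hg, mem_setsGroup_of_induces a⟩, ptsHom_eq (g := ⟨g, mem_setsGroup_of_induces a⟩) a⟩

theorem centPts_base {g : setsCent} (h : (g : Co0) ∈ gamBase) : centPts g = 1 := by
  have hle : gamBase ≤ (centPts.ker.map setsCent.subtype) := by
    refine sup_le ?_ ?_
    · intro c hc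
      refine ⟨⟨c, gamBase_le (Subgroup.mem_sup_left hc)⟩, ?_, rfl⟩
      rw [SetLike.mem_coe, MonoidHom.mem_ker]
      rcases center_co0_cases hc with rfl | rfl
      · exact ptsHom_eq (g := ⟨1, _⟩) Induces.one
      · exact ptsHom_eq (g := ⟨negOne, _⟩) negOne_induces
    · rw [Subgroup.zpowers_le]
      exact ⟨⟨gam, gamBase_le (Subgroup.mem_sup_right (Subgroup.mem_zpowers _))⟩,
        MonoidHom.mem_ker.2 (ptsHom_eq (g := ⟨gam, _⟩) gam_induces), rfl⟩
  obtain ⟨k, hk, e⟩ := hle h
  rw [← show k = g from Subtype.ext e]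
  exact hk

/-- The three-cycle as an even permutation. -/
def altA : alternatingGroup (Fin 5) := ⟨permA, by rw [Equiv.Perm.mem_alternatingGroup]; decide⟩

/-- The five-cycle as an even permutation. -/
def altB : alternatingGroup (Fin 5) := ⟨permB, by rw [Equiv.Perm.mem_alternatingGroup]; decide⟩

theorem alt_facts : altA ^ 10 = altA ∧ altB ^ 10 = 1 ∧ altB ^ 6 = altB ∧ altA ^ 6 = 1 ∧
    orderOf altA = 3 ∧ orderOf altB = 5 := by
  haveI : Fact (Nat.Prime 3) := ⟨by norm_num⟩
  haveI : Fact (Nat.Prime 5) := ⟨by norm_num⟩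
  exact ⟨by decide +kernel, by decide +kernel, by decide +kernel, by decide +kernel,
    orderOf_eq_prime (by decide +kernel) (by decide +kernel),
    orderOf_eq_prime (by decide +kernel) (by decide +kernel)⟩

theorem wreath_le_range : alternatingFiveWreathTwo ≤ centPts.range := by
  have hmc : ∀ {g : Co0}, g * gam = gam * g → g ∈ gamCent := fun h =>
    Subgroup.mem_centralizer_singleton_iff.2 h
  have hX : pairHom (altA, altB) ∈ centPts.range := centPts_eq (hmc eX_comm) eX_induces
  have hY : pairHom (altB, altA) ∈ centPts.range := centPts_eq (hmc eY_comm) eY_induces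
  have hT : Equiv.sumComm (Fin 5) (Fin 5) ∈ centPts.range := centPts_eq (hmc eT_comm) eT_induces
  obtain ⟨a1, a2, a3, a4, a5, a6⟩ := alt_facts
  let J : Subgroup (alternatingGroup (Fin 5)) :=
    centPts.range.comap (pairHom.comp (MonoidHom.inl _ _))
  have hJ : J = ⊤ := by
    refine alt_five_top J (a := altA) (b := altB) ?_ ?_ a5 a6
    · have := pow_mem hX 10
      rw [← map_pow, Prod.pow_mk, a1, a2] at this
      exact this
    · have := pow_mem hY 6
      rw [← map_pow, Prod.pow_mk, a3, a4] at this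
      exact this
  have hl : ∀ σ, pairHom (σ, 1) ∈ centPts.range := fun σ =>
    (show σ ∈ J from hJ ▸ Subgroup.mem_top σ)
  have hr : ∀ τ, pairHom (1, τ) ∈ centPts.range := fun τ => by
    rw [← comm_pair τ 1]
    exact mul_mem (mul_mem hT (hl τ)) (inv_mem hT)
  rw [alternatingFiveWreathTwo, Subgroup.closure_le]
  rintro g (⟨σ, τ, rfl⟩ | rfl)
  · have e : (σ, τ) = (σ, 1) * (1, τ) := by simp
    show pairHom (σ, τ) ∈ centPts.range
    rw [e, map_mul]
    exact mul_mem (hl σ) (hr τ)
  · exact hT

theorem sizes : setsCent = gamCent ∧ centPts.range = alternatingFiveWreathTwo ∧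
    centPts.ker = gamBase.subgroupOf setsCent := by
  classical
  haveI : Finite Co0 := finite_co0
  have hker : gamBase.subgroupOf setsCent ≤ centPts.ker := fun g hg =>
    MonoidHom.mem_ker.2 (centPts_base hg)
  obtain ⟨a, ha⟩ := Subgroup.card_dvd_of_le wreath_le_range
  obtain ⟨c, hc⟩ := Subgroup.card_dvd_of_le hker
  rw [Nat.card_congr (Subgroup.subgroupOfEquivOfLe gamBase_le).toEquiv] at hc
  obtain ⟨d, hd⟩ := card_gamBase
  obtain ⟨i, hi⟩ := Subgroup.card_dvd_of_le (inf_le_left : setsCent ≤ gamCent)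
  have hH : Nat.card setsCent = Nat.card centPts.ker * Nat.card centPts.range := by
    rw [← Subgroup.card_mul_index centPts.ker, Subgroup.index_ker]
  have hK := card_wreath_ge
  have hC := card_cent_le
  have ha0 : 1 ≤ a := Nat.pos_of_ne_zero fun h => Nat.card_pos.ne' (by rw [ha, h, mul_zero])
  have hc0 : 1 ≤ c := Nat.pos_of_ne_zero fun h => Nat.card_pos.ne' (by rw [hc, h, mul_zero])
  have hd0 : 1 ≤ d := Nat.pos_of_ne_zero fun h => Nat.card_pos.ne' (by rw [hd, h, mul_zero])
  have hi0 : 1 ≤ i := Nat.pos_of_ne_zero fun h => Nat.card_pos.ne' (by rw [hi, h, mul_zero])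
  have hprod : 72000 * (d * c * a * i) ≤ 129600 := by
    refine le_trans ?_ hC
    rw [hi, hH, ha, hc, hd]
    calc 72000 * (d * c * a * i) = 10 * d * c * (7200 * a) * i := by ring
      _ ≤ _ := by gcongr
  have h1 : d * c * a * i = 1 := by
    have : 1 ≤ d * c * a * i := by
      have := Nat.mul_le_mul (Nat.mul_le_mul (Nat.mul_le_mul hd0 hc0) ha0) hi0
      simpa using this
    omega
  obtain ⟨⟨⟨-, hc1⟩, ha1⟩, hi1⟩ : ((d = 1 ∧ c = 1) ∧ a = 1) ∧ i = 1 := by
    simp only [mul_eq_one] at h1; exact h1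
  refine ⟨Subgroup.eq_of_le_of_card_ge inf_le_left (by rw [hi, hi1, mul_one]),
    (Subgroup.eq_of_le_of_card_ge wreath_le_range (by rw [ha, ha1, mul_one])).symm,
    (Subgroup.eq_of_le_of_card_ge hker (by
      rw [Nat.card_congr (Subgroup.subgroupOfEquivOfLe gamBase_le).toEquiv, hc, hc1, mul_one])).symm⟩

theorem nonempty_quot_equiv :
    Nonempty (gamCent ⧸ base gam ≃* alternatingFiveWreathTwo) := by
  obtain ⟨h1, h2, h3⟩ := sizes
  let i : gamCent →* setsCent := Subgroup.inclusion h1.ge
  have hi : Function.Surjective i := fun g => ⟨⟨g, (Subgroup.mem_inf.1 g.2).1⟩, Subtype.ext rfl⟩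
  have hk : (centPts.comp i).ker = base gam := by
    ext g
    rw [MonoidHom.mem_ker, MonoidHom.comp_apply, ← MonoidHom.mem_ker, h3]
    exact Iff.rfl
  have hr : (centPts.comp i).range = alternatingFiveWreathTwo := by
    rw [MonoidHom.range_comp, MonoidHom.range_eq_top.2 hi, ← MonoidHom.range_eq_map, h2]
  exact ⟨(QuotientGroup.quotientMulEquivOfEq hk.symm).trans
    ((QuotientGroup.quotientKerEquivRange _).trans (MulEquiv.subgroupCongr hr))⟩

theorem gam_faithful {k : Co0} (hk : k ∈ gamCent)
    (hfix : ∀ v : leechLattice, Cg (gam • v) v → Cg (k • v) v) : k ∈ gamBase := by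
  obtain ⟨-, -, h3⟩ := sizes
  have hi := fixes_of_trivial hfix
  have h : (⟨k, hk, mem_setsGroup_of_induces hi⟩ : setsCent) ∈ centPts.ker :=
    MonoidHom.mem_ker.2 (ptsHom_eq (g := ⟨k, mem_setsGroup_of_induces hi⟩) hi)
  rw [h3] at h
  exact h

theorem quot_core {H : Type*} [Group H] (f : H ≃* alternatingFiveWreathTwo) (T : Subgroup H)
    [T.Normal] (hT : IsPGroup 2 T) : T = ⊥ := by
  haveI : (T.map f.toMonoidHom).Normal := Subgroup.Normal.map ‹_› _ f.surjective
  have h := wreath_core (T.map f.toMonoidHom) (hT.map _)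
  exact (Subgroup.map_eq_bot_iff_of_injective _ f.injective).1 h

/-- The data for a conjugate of the element. -/
theorem conj_facts {γ t : Co0} (ht : t * γ * t⁻¹ = gam) :
    Nonempty (Subgroup.centralizer ({γ} : Set Co0) ⧸ base γ ≃* alternatingFiveWreathTwo) ∧
    (∀ k ∈ Subgroup.centralizer ({γ} : Set Co0),
      (∀ v : leechLattice, Cg (γ • v) v → Cg (k • v) v) →
        k ∈ Subgroup.center Co0 ⊔ Subgroup.zpowers γ) ∧
    ∃ w : Fin 256 → leechLattice, (∀ m, Cg (γ • w m) (w m)) ∧
      (∀ v, Cg (γ • v) v → ∃ m, Cg v (w m)) ∧ ∀ a b, Cg (w a) (w b) → a = b := by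
  have hγ : γ = t⁻¹ * gam * t := by rw [← ht]; group
  have hb : ∀ x, x ∈ Subgroup.center Co0 ⊔ Subgroup.zpowers γ ↔ t * x * t⁻¹ ∈ gamBase := by
    intro x
    have hmap : (Subgroup.center Co0 ⊔ Subgroup.zpowers γ).map (MulAut.conj t).toMonoidHom =
        gamBase := by
      rw [Subgroup.map_sup, MonoidHom.map_zpowers]
      congr 1
      · ext y
        constructor
        · rintro ⟨c, hc, rfl⟩
          show t * c * t⁻¹ ∈ Subgroup.center Co0
          rw [Subgroup.mem_center_iff.1 hc t, mul_inv_cancel_right]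
          exact hc
        · intro hy
          refine ⟨y, hy, ?_⟩
          show t * y * t⁻¹ = y
          rw [Subgroup.mem_center_iff.1 hy t, mul_inv_cancel_right]
      · simp [ht]
    rw [← hmap]
    exact (Subgroup.mem_map_iff_mem (MulAut.conj t).injective).symm
  have hcen : ∀ x, x ∈ Subgroup.centralizer ({γ} : Set Co0) ↔ t * x * t⁻¹ ∈ gamCent := by
    intro x
    rw [Subgroup.mem_centralizer_singleton_iff, Subgroup.mem_centralizer_singleton_iff, ← ht]
    constructor
    · intro h
      calc t * x * t⁻¹ * (t * γ * t⁻¹) = t * (x * γ) * t⁻¹ := by group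
        _ = t * γ * t⁻¹ * (t * x * t⁻¹) := by rw [h]; group
    · intro h
      calc x * γ = t⁻¹ * (t * x * t⁻¹ * (t * γ * t⁻¹)) * t := by group
        _ = γ * x := by rw [h]; group
  have hcg : ∀ v, Cg (γ • v) v ↔ Cg (gam • t • v) (t • v) := fun v => by
    rw [← ht, mul_smul, mul_smul, inv_smul_smul]
    exact ⟨fun h => h.smul t, fun h => by simpa using h.smul t⁻¹⟩
  refine ⟨?_, ?_, ⟨fun m => t⁻¹ • comb m, ?_, ?_, ?_⟩⟩
  · obtain ⟨f⟩ := nonempty_quot_equiv
    let c : Subgroup.centralizer ({γ} : Set Co0) ≃* gamCent :=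
      { toFun := fun x => ⟨t * x.1 * t⁻¹, (hcen _).1 x.2⟩
        invFun := fun y => ⟨t⁻¹ * y.1 * t, (hcen _).2 (by convert y.2 using 1; group)⟩
        left_inv := fun x => Subtype.ext (by group)
        right_inv := fun y => Subtype.ext (by group)
        map_mul' := fun x y => Subtype.ext (by
          show t * (x.1 * y.1) * t⁻¹ = t * x.1 * t⁻¹ * (t * y.1 * t⁻¹)
          group) }
    refine ⟨(QuotientGroup.congr (base γ) (base gam) c ?_).trans f⟩
    ext y
    rw [Subgroup.mem_map]
    constructor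
    · rintro ⟨x, hx, rfl⟩; exact (hb _).1 hx
    · intro hy
      exact ⟨c.symm y, (hb _).2 (by
        have : t * (c.symm y).1 * t⁻¹ = y.1 := congrArg Subtype.val (c.apply_symm_apply y)
        show t * (c.symm y).1 * t⁻¹ ∈ gamBase
        rw [this]; exact hy), c.apply_symm_apply y⟩
  · intro k hk hfix
    refine (hb k).2 (gam_faithful ((hcen k).1 hk) fun v hv => ?_)
    have h := hfix (t⁻¹ • v) ((hcg _).2 (by rwa [smul_inv_smul]))
    have h' := h.smul t
    rwa [smul_inv_smul, ← mul_smul, ← mul_smul] at h'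
  · intro m
    rw [hcg, smul_inv_smul, gam_comb]
    exact Cg.refl _
  · intro v hv
    obtain ⟨m, hm⟩ := fixed_class ((hcg v).1 hv)
    exact ⟨m, by simpa using hm.smul t⁻¹⟩
  · intro a b h
    exact comb_cg_inj (by simpa using h.smul t)

end CfsgLib.Co0FiveFix81
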