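import Mathlib
import Cfsg.Agent.Leech.Order
import Cfsg.Agent.MonsterCent13.Quot
import Cfsg.Agent.Co0FiveFix81.Main

/-! In the Monster-type setting, a Sylow 5-subgroup of the joint centraliser of `z` and a second
conjugate in `Q` is generated by an element lying over a conjugate of the element of shape
`1^4 5^4`. -/

set_option autoImplicit false

namespace CfsgLib.Co0FiveFix81

open Cfsg CfsgLib.Leech CfsgLib.MonsterCent13
open scoped Pointwise

variable {G : Type*} [Group G] [Finite G] {z : G}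
variable {Q : Subgroup (Subgroup.centralizer ({z} : Set G))} [Q.Normal]
variable {e : (Subgroup.centralizer ({z} : Set G)) ⧸ Q ≃* Spor.Co1}
variable {ψ : leechLattice → Q ⧸ Subgroup.center Q}

theorem Match.pow' {h : Subgroup.centralizer ({z} : Set G)} {g : Co0} (a : Match e h g) :
    ∀ n : ℕ, Match e (h ^ n) (g ^ n)
  | 0 => by simp [Match]
  | n + 1 => by rw [pow_succ, pow_succ]; exact (Match.pow' a n).mul a

theorem gam_mem_frameStab : gam ∈ frameStab := by
  rw [mem_frameStab, gam_axis]; exact Cg.refl _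

theorem pow_five_cases {x : Co0} (hx : x ^ 5 ∈ Subgroup.center Co0) :
    ∃ y, y ^ 5 = 1 ∧ (y = x ∨ y = x * negOne) := by
  rcases center_co0_cases hx with h | h
  · exact ⟨x, h, Or.inl rfl⟩
  · refine ⟨x * negOne, ?_, Or.inr rfl⟩
    have hn : negOne ^ 2 = 1 := by rw [← orderOf_negOne]; exact pow_orderOf_eq_one _
    have hcn : Commute x negOne := Subgroup.mem_center_iff.1 negOne_central x
    rw [hcn.mul_pow, h,
      show negOne ^ 5 = (negOne ^ 2) ^ 2 * negOne by group, hn, one_pow, one_mul, ← pow_two, hn]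

theorem factor_co_five : (4096 * 244823040 : ℕ).factorization 5 = 1 := by
  rw [show (4096 * 244823040 : ℕ) = 5 ^ 1 * (4096 * 48964608) by norm_num,
    Nat.factorization_mul (by norm_num) (by norm_num), Nat.Prime.factorization_pow (by norm_num)]
  simp [Nat.factorization_eq_zero_of_not_dvd (show ¬ 5 ∣ 4096 * 48964608 by norm_num)]

variable (hc : Ctx z Q e ψ)
include hc

theorem exists_five_generator {g : G} {sq : Q} (hp : ConjPair z Q g sq) (B : Subgroup G)
    (hB : B ≤ Subgroup.centralizer ({z, ((sq : Subgroup.centralizer ({z} : Set G)) : G)} : Set G))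
    (hBp : Nat.card B = 5 ^ (Nat.card ↥(Subgroup.centralizer
      ({z, ((sq : Subgroup.centralizer ({z} : Set G)) : G)} : Set G))).factorization 5) :
    ∃ (b : Subgroup.centralizer ({z} : Set G)) (γ t : Co0), b ^ 5 = 1 ∧ γ ^ 5 = 1 ∧ Match e b γ ∧
      Commute b (sq : Subgroup.centralizer ({z} : Set G)) ∧ B = Subgroup.zpowers (b : G) ∧
      t * γ * t⁻¹ = gam := by
  classical
  haveI : Fact (Nat.Prime 5) := ⟨by norm_num⟩
  haveI : Finite Co0 := finite_co0
  set s : G := ((sq : Subgroup.centralizer ({z} : Set G)) : G)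
  set CS := Subgroup.centralizer ({z, s} : Set G)
  obtain ⟨v, hv⟩ := hc.exists_class sq
  obtain ⟨t₀, ht₀⟩ := hc.class_frame hp hv
  have hQ5 : ∀ x : Subgroup.centralizer ({z} : Set G), x ∈ Q → ∀ n : ℕ, x ^ 5 ^ n = 1 → x = 1 := by
    intro x hx n hn
    have h2 := pow_card_eq_one' (x := (⟨x, hx⟩ : Q))
    rw [hc.setting.2.2.2.1] at h2
    have hd : orderOf x ∣ Nat.gcd (2 ^ (2 * 12 + 1)) (5 ^ n) :=
      Nat.dvd_gcd (orderOf_dvd_of_pow_eq_one (congrArg Subtype.val h2)) (orderOf_dvd_of_pow_eq_one hn)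
    rw [Nat.Coprime.pow _ _ (by norm_num : Nat.Coprime 2 5), Nat.dvd_one] at hd
    exact orderOf_eq_one_iff.1 hd
  have hstab : ∀ {x : Subgroup.centralizer ({z} : Set G)} {γ : Co0}, Match e x γ →
      Commute x (sq : Subgroup.centralizer ({z} : Set G)) → t₀ * γ * t₀⁻¹ ∈ frameStab := by
    intro x γ hm hx
    have h1 : Cg (γ • v) v := by
      refine (psi_eq_iff hc.iso _ _).1 ?_
      rw [hc.conj_class hm hv, hv]
      refine congrArg QuotientGroup.mk (Subtype.ext ?_)
      show x * _ * x⁻¹ = _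
      rw [hx.eq, mul_inv_cancel_right]
    have h2 : Cg (t₀⁻¹ • axisVec none) v := by simpa using (ht₀.smul t₀⁻¹).symm
    rw [mem_frameStab, mul_smul, mul_smul]
    exact (((h2.smul γ).trans h1).smul t₀).trans ht₀
  -- an element of order five
  obtain ⟨h₀, hh₀⟩ := exists_match_left (e := e) (t₀⁻¹ * gam * t₀)
  have hh5 : h₀ ^ 5 ∈ Q := by
    have h1 := Match.pow' hh₀ 5
    have h2 := conj_pow (a := t₀⁻¹) (b := gam) (i := 5)
    rw [inv_inv] at h2
    rw [h2, gam_pow, mul_one, inv_mul_cancel] at h1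
    rw [Match, QuotientGroup.mk_one, eq_comm, map_eq_one_iff e e.injective,
      QuotientGroup.eq_one_iff] at h1
    exact h1
  set b₀ := h₀ ^ 2 ^ 25
  have hb₀ : b₀ ^ 5 = 1 := by
    rw [← pow_mul, mul_comm, pow_mul]
    have h := pow_card_eq_one' (x := (⟨h₀ ^ 5, hh5⟩ : Q))
    rw [hc.setting.2.2.2.1] at h
    exact congrArg Subtype.val h
  have hmb₀ := Match.pow' hh₀ (2 ^ 25)
  have hcb₀ : Commute b₀ (sq : Subgroup.centralizer ({z} : Set G)) := by
    have hfix : Cg (((t₀⁻¹ * gam * t₀) ^ 2 ^ 25) • v) v := by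
      have h1 : (t₀⁻¹ * gam * t₀) ^ 2 ^ 25 = t₀⁻¹ * gam ^ 2 ^ 25 * t₀ := by
        have := conj_pow (a := t₀⁻¹) (b := gam) (i := 2 ^ 25)
        rwa [inv_inv] at this
      have h2 : ∀ n : ℕ, gam ^ n • axisVec none = axisVec none := by
        intro n
        induction n with
        | zero => simp
        | succ n ih => rw [pow_succ, mul_smul, gam_axis, ih]
      rw [h1, mul_smul, mul_smul]
      have h3 : Cg (gam ^ 2 ^ 25 • t₀ • v) (t₀ • v) :=
        ((ht₀.smul _).trans (by rw [h2]; exact Cg.refl _)).trans ht₀.symm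
      simpa using h3.smul t₀⁻¹
    obtain ⟨q, hq, hcq⟩ := exists_lift_commute hc (by norm_num : (5 : ℕ) ≠ 2) hb₀ hmb₀ hfix
    rcases hc.mem_center.1 (QuotientGroup.eq.1 (hq.symm.trans hv)) with h | h
    · rw [inv_mul_eq_one] at h
      rwa [h] at hcq
    · rw [inv_mul_eq_iff_eq_mul] at h
      rw [h]
      exact hcq.mul_right (zElt_central b₀)
  have hb₀1 : b₀ ≠ 1 := by
    intro h
    rw [Match, show h₀ ^ 2 ^ 25 = 1 from h, QuotientGroup.mk_one, map_one, QuotientGroup.eq_one_iff] at hmb₀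
    have h1 : orderOf ((t₀⁻¹ * gam * t₀) ^ 2 ^ 25) = 5 := by
      have ho : orderOf (t₀⁻¹ * gam * t₀) = 5 := by
        rw [← orderOf_gam]
        exact MulEquiv.orderOf_eq (MulAut.conj t₀⁻¹) gam |>.symm ▸ (by simp [MulAut.conj_apply])
      rw [Nat.Coprime.orderOf_pow (by rw [ho]; exact Nat.Coprime.pow_right _ (by norm_num)), ho]
    rcases center_co0_cases hmb₀ with r | r <;> rw [r] at h1
    · simp at h1
    · rw [orderOf_negOne] at h1; omega
  have hmem : ∀ {x : Subgroup.centralizer ({z} : Set G)},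
      Commute x (sq : Subgroup.centralizer ({z} : Set G)) → (x : G) ∈ CS := by
    intro x hx
    rw [Subgroup.mem_centralizer_iff]
    rintro y (rfl | rfl)
    · exact Subgroup.mem_centralizer_iff.1 x.2 _ rfl
    · exact congrArg Subtype.val hx.eq.symm
  have h5 : 5 ∣ Nat.card CS := by
    have := Subgroup.orderOf_dvd_natCard CS (hmem hcb₀)
    rwa [Subgroup.orderOf_coe, orderOf_eq_prime hb₀ hb₀1] at this
  -- the subgroup has order five
  have hBC : ∀ x : B, (x : G) ∈ Subgroup.centralizer ({z} : Set G) := fun x => by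
    rw [Subgroup.mem_centralizer_singleton_iff]
    exact (Subgroup.mem_centralizer_iff.1 (hB x.2) z (Or.inl rfl)).symm
  have hBs : ∀ x : B, Commute (⟨x, hBC x⟩ : Subgroup.centralizer ({z} : Set G))
      (sq : Subgroup.centralizer ({z} : Set G)) := fun x =>
    Subtype.ext (Subgroup.mem_centralizer_iff.1 (hB x.2) s (Or.inr rfl)).symm
  let Φ : B →* Spor.Co1 := (e.toMonoidHom.comp (QuotientGroup.mk' Q)).comp
    (MonoidHom.mk' (fun x => (⟨x, hBC x⟩ : Subgroup.centralizer ({z} : Set G))) fun _ _ => rfl)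
  obtain ⟨k, hk⟩ : ∃ k, Nat.card B = 5 ^ k := ⟨_, hBp⟩
  have hΦi : Function.Injective Φ := by
    refine (injective_iff_map_eq_one Φ).2 fun x hx => ?_
    have hxQ : (⟨x, hBC x⟩ : Subgroup.centralizer ({z} : Set G)) ∈ Q :=
      (QuotientGroup.eq_one_iff _).1 ((map_eq_one_iff e e.injective).1 hx)
    have h1 := pow_card_eq_one' (x := x)
    rw [hk] at h1
    have := hQ5 _ hxQ k (Subtype.ext (congrArg Subtype.val h1 :))
    exact Subtype.ext (congrArg Subtype.val this :)
  let S := (frameStab.comap (MulAut.conj t₀).toMonoidHom).map (QuotientGroup.mk' (Subgroup.center Co0))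
  have hΦS : Φ.range ≤ S := by
    rintro _ ⟨x, rfl⟩
    obtain ⟨γ, hγ⟩ := exists_match_right (e := e) (⟨x, hBC x⟩ : Subgroup.centralizer ({z} : Set G))
    exact ⟨γ, hstab hγ (hBs x), hγ⟩
  have hk1 : k ≤ 1 := by
    have h1 : 5 ^ k ∣ Nat.card frameStab := by
      rw [← hk, Nat.card_congr (MonoidHom.ofInjective hΦi).toEquiv]
      refine (Subgroup.card_dvd_of_le hΦS).trans ((Subgroup.card_map_dvd _ _).trans ?_)
      rw [Subgroup.comap_equiv_eq_map_symm', Subgroup.card_map_of_injective (MulEquiv.injective _)]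
    rw [card_frameStab] at h1
    have := ((Nat.Prime.pow_dvd_iff_le_factorization (by norm_num) (by norm_num)).1 h1)
    rwa [factor_co_five] at this
  have hB5 : Nat.card B = 5 := by
    have h1 : 1 ≤ (Nat.card CS).factorization 5 :=
      (Nat.Prime.pow_dvd_iff_le_factorization (by norm_num) Nat.card_pos.ne').1 (by simpa using h5)
    have h2 : k = (Nat.card CS).factorization 5 :=
      Nat.pow_right_injective (by norm_num) (hk.symm.trans hBp)
    rw [hk, show k = 1 by omega, pow_one]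
  obtain ⟨x, hx⟩ := (isCyclic_of_prime_card hB5).exists_generator
  set b : Subgroup.centralizer ({z} : Set G) := ⟨x, hBC x⟩
  have hb : b ^ 5 = 1 := by
    have := pow_card_eq_one' (x := x)
    rw [hB5] at this
    exact Subtype.ext (congrArg Subtype.val this :)
  have hb1 : b ≠ 1 := by
    intro h
    have hx1 : x = 1 := Subtype.ext (congrArg Subtype.val h :)
    have : B = ⊥ := B.eq_bot_iff_forall.2 fun y hy => by
      obtain ⟨n, hn⟩ := Subgroup.mem_zpowers_iff.1 (hx ⟨y, hy⟩)
      rw [hx1, one_zpow] at hn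
      exact congrArg Subtype.val hn.symm
    rw [this] at hB5; simp at hB5
  obtain ⟨γ₁, hγ₁⟩ := exists_match_right (e := e) b
  obtain ⟨γ, hγ5, hγcase⟩ := pow_five_cases (x := γ₁) (by
    have := Match.pow' hγ₁ 5
    rwa [Match, hb, QuotientGroup.mk_one, map_one, QuotientGroup.eq_one_iff] at this)
  have hγ : Match e b γ := by
    rcases hγcase with rfl | rfl
    · exact hγ₁
    · rw [Match, QuotientGroup.mk_mul, (QuotientGroup.eq_one_iff negOne).2 negOne_central, mul_one]
      exact hγ₁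
  have hbQ : b ∉ Q := fun h => hb1 (hQ5 b h 1 (by rwa [pow_one]))
  have hγ1 : γ ≠ 1 := by
    rintro rfl
    rw [Match, QuotientGroup.mk_one, eq_comm, map_eq_one_iff e e.injective,
      QuotientGroup.eq_one_iff] at hγ
    exact hbQ hγ
  let a₁ : frameStab := ⟨t₀ * γ * t₀⁻¹, hstab hγ (hBs x)⟩
  let a₂ : frameStab := ⟨gam, gam_mem_frameStab⟩
  have ho₁ : orderOf a₁ = 5 := orderOf_eq_prime (Subtype.ext (by
      show (t₀ * γ * t₀⁻¹) ^ 5 = 1
      rw [conj_pow, hγ5, mul_one, mul_inv_cancel]))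
    (fun h => hγ1 (by
      have h' : t₀ * γ * t₀⁻¹ = 1 := congrArg Subtype.val h
      rwa [conj_eq_one_iff] at h'))
  have ho₂ : orderOf a₂ = 5 := by rw [← Subgroup.orderOf_coe]; exact orderOf_gam
  have hsyl : ∀ a : frameStab, orderOf a = 5 →
      Nat.card (Subgroup.zpowers a) = 5 ^ (Nat.card frameStab).factorization 5 := fun a ha => by
    rw [Nat.card_zpowers, ha, card_frameStab, factor_co_five, pow_one]
  obtain ⟨u, hu⟩ := MulAction.exists_smul_eq frameStab
    (Sylow.ofCard _ (hsyl a₁ ho₁)) (Sylow.ofCard _ (hsyl a₂ ho₂))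
  have hmem₂ : a₂ ∈ (MulAut.conj u) • Subgroup.zpowers a₁ := by
    have := congrArg (fun S : Sylow 5 frameStab => (S : Subgroup frameStab)) hu
    simp only [Sylow.coe_subgroup_smul, Sylow.coe_ofCard] at this
    rw [this]; exact Subgroup.mem_zpowers _
  rw [Subgroup.mem_pointwise_smul_iff_inv_smul_mem, ← mem_powers_iff_mem_zpowers] at hmem₂
  obtain ⟨i, hi⟩ := hmem₂
  have hi' : a₁ ^ i = u⁻¹ * a₂ * u := by simpa [MulAut.smul_def] using hi
  have hi'' : ((u : Co0) * t₀) * γ ^ i * ((u : Co0) * t₀)⁻¹ = gam := by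
    have h1 : (t₀ * γ * t₀⁻¹) ^ i = (u : Co0)⁻¹ * gam * u := congrArg Subtype.val hi'
    rw [conj_pow] at h1
    calc _ = (u : Co0) * (t₀ * γ ^ i * t₀⁻¹) * (u : Co0)⁻¹ := by group
      _ = gam := by rw [h1]; group
  refine ⟨b ^ i, γ ^ i, (u : Co0) * t₀, ?_, ?_, Match.pow' hγ i, (hBs x).pow_left i, ?_, hi''⟩
  · rw [← pow_mul, mul_comm, pow_mul, hb, one_pow]
  · rw [← pow_mul, mul_comm, pow_mul, hγ5, one_pow]
  · refine (Subgroup.eq_of_le_of_card_ge ?_ ?_).symm
    · rw [Subgroup.zpowers_le]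
      exact B.pow_mem x.2 i
    · rw [hB5, Nat.card_zpowers]
      have hne : b ^ i ≠ 1 := by
        intro h
        have := Match.pow' hγ i
        rw [Match, h, QuotientGroup.mk_one, map_one, QuotientGroup.eq_one_iff] at this
        have hg : gam ∈ Subgroup.center Co0 := by
          rw [← hi'']
          rw [show (u : Co0) * t₀ * γ ^ i * ((u : Co0) * t₀)⁻¹ = γ ^ i by
            rw [Subgroup.mem_center_iff.1 this, mul_inv_cancel_right]]
          exact this
        rcases center_co0_cases hg with r | r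
        · exact gam_ne_one r
        · have := orderOf_gam
          rw [r, orderOf_negOne] at this; omega
      rw [Subgroup.orderOf_coe, orderOf_eq_prime (by rw [← pow_mul, mul_comm, pow_mul, hb, one_pow]) hne]

end CfsgLib.Co0FiveFix81
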